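import Mathlib
import Cfsg.Agent.Lib.Helper59.OHyp.BlkDefs

/-!
# OHYP (S5992), BLK cut, package [MASCHKE]: invariant complements
-/

set_option autoImplicit false

namespace Cfsg.Agent.Lib.Helper46.OHyp

open Cfsg.Agent.Lib.Helper23.OHyp Cfsg.Agent.Lib.Helper59.OHyp Polynomial

universe u

/-- [MASCHKE] -/
theorem pkgMaschke : PkgMaschke.{u} := by
  intro F _ ι _ _ r x hr hx W U hUW hW hU
  let T : Module.End F (ι → F) := Matrix.toLin' x
  have hTr : T ^ r = 1 := by
    have h1 : T ^ r = Matrix.toLinAlgEquiv' (x ^ r) := (map_pow Matrix.toLinAlgEquiv' x r).symm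
    rw [h1, hx, map_one]
  have hsq : Squarefree (X ^ r - C (1 : F)) := (separable_X_pow_sub_C 1 hr one_ne_zero).squarefree
  have hss : T.IsSemisimple := by
    apply Module.End.isSemisimple_of_squarefree_aeval_eq_zero hsq
    simp [hTr]
  have hU' : U ∈ T.invtSubmodule := by
    rw [Module.End.mem_invtSubmodule]
    exact Submodule.map_le_iff_le_comap.1 hU
  have hW' : W ≤ W.comap T := Submodule.map_le_iff_le_comap.1 hW
  obtain ⟨q, hq, hcompl⟩ := (Module.End.isSemisimple_iff.1 hss) U hU'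
  rw [Module.End.mem_invtSubmodule] at hq
  refine ⟨q ⊓ W, inf_le_right, ?_, ?_, ?_⟩
  · unfold Cfsg.Agent.Lib.Helper23.OHyp.Inv
    rw [Submodule.map_le_iff_le_comap]
    intro v hv
    exact ⟨hq hv.1, hW' hv.2⟩
  · rw [eq_bot_iff]
    calc U ⊓ (q ⊓ W) ≤ U ⊓ q := inf_le_inf_left U inf_le_left
      _ = ⊥ := hcompl.inf_eq_bot
  · rw [← sup_inf_assoc_of_le q hUW, hcompl.sup_eq_top, top_inf_eq]

end Cfsg.Agent.Lib.Helper46.OHyp
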